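import Cfsg.Agent.Lib.Mono.Gen

/-!
Two generators for the Chevalley groups: `a = n x_r(1)`, `b = h x_{s₁}(1)` with `n` a monomial word,
`h` an element of the diagonal subgroup commuting with `x_{s₁}(1)`.
-/

set_option autoImplicit false
set_option linter.unusedSectionVars false
set_option linter.unusedVariables false

namespace Cfsg.Agent.Lib.ChevTwo.Core

open scoped MatrixGroups Matrix
open Cfsg Lie ChevalleyDatum
open Cfsg.Agent.Lib.Chev
open Tables Tables2 Tables3 Tables4 Raise Basic AxBasic Torus Products Products2 Mono1 Mono2 Mono3 Bn ChevSimple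
open Cfsg.Agent.Lib.Mono.Gen

variable {D : ChevalleyDatum} {F : Type*} [Field F]

variable (h : Tab D) (h2 : Tab2 D) (ax : Ax D F) (K : Subgroup (GL D.Idx F))

lemma xG_pow (r : ℕ) (t : F) (k : ℕ) : (xG ax r t) ^ k = xG ax r ((k : F) * t) := by
  induction k with
  | zero => simp
  | succ k ih =>
    rw [pow_succ, ih, xG_add]
    congr 1
    push_cast
    ring

/-- From one element of a root subgroup in `K`, and an element of `K` acting through a generator
of `Fˣ`, to the whole root subgroup. -/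
theorem QR_of_gen {s : ℕ} {g : GL D.Idx F} (hg : g ∈ K) {χ : Fˣ}
    (hconj : ∀ t, g * xG ax s t * g⁻¹ = xG ax s ((χ : F) * t))
    (hχ : ∀ u : Fˣ, u ∈ Subgroup.zpowers χ) {c₀ : F} (hc₀ : c₀ ≠ 0) (h0 : xG ax s c₀ ∈ K) :
    QR ax K s := by
  let A : Subgroup Fˣ :=
    { carrier := {u | ∃ g' ∈ K, ∀ t, g' * xG ax s t * g'⁻¹ = xG ax s ((u : F) * t)}
      one_mem' := ⟨1, K.one_mem, by simp⟩
      mul_mem' := by
        rintro u v ⟨g₁, hg₁, e₁⟩ ⟨g₂, hg₂, e₂⟩
        refine ⟨g₁ * g₂, K.mul_mem hg₁ hg₂, fun t => ?_⟩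
        have e : g₁ * g₂ * xG ax s t * (g₁ * g₂)⁻¹ = g₁ * (g₂ * xG ax s t * g₂⁻¹) * g₁⁻¹ := by group
        rw [e, e₂, e₁]
        simp [mul_assoc]
      inv_mem' := by
        rintro u ⟨g₁, hg₁, e₁⟩
        refine ⟨g₁⁻¹, K.inv_mem hg₁, fun t => ?_⟩
        have e := e₁ ((u⁻¹ : Fˣ) * t)
        have e2 : (u : F) * (((u⁻¹ : Fˣ) : F) * t) = t := by
          rw [← mul_assoc, ← Units.val_mul]
          simp
        rw [e2] at e
        rw [← e]
        group }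
  have hA : Subgroup.zpowers χ ≤ A := by
    rw [Subgroup.zpowers_le]
    exact ⟨g, hg, hconj⟩
  intro t
  by_cases ht : t = 0
  · rw [ht, xG_zero]
    exact K.one_mem
  · obtain ⟨g', hg', e⟩ := hA (hχ (Units.mk0 (t / c₀) (div_ne_zero ht hc₀)))
    have e2 := e c₀
    simp only [Units.val_mk0] at e2
    rw [div_mul_cancel₀ _ hc₀] at e2
    rw [← e2]
    exact K.mul_mem (K.mul_mem hg' h0) (K.inv_mem hg')

/-- Every element of a finite field is a difference of two squares. -/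
lemma exists_sq_sub_sq [Finite F] (x : F) : ∃ y z : F, x = y ^ 2 - z ^ 2 := by
  have := Fintype.ofFinite F
  by_cases h2 : ringChar F = 2
  · obtain ⟨y, hy⟩ := FiniteField.isSquare_of_char_two h2 x
    exact ⟨y, 0, by rw [hy]; ring⟩
  · have h20 : (2 : F) ≠ 0 := Ring.two_ne_zero h2
    refine ⟨(x + 1) / 2, (x - 1) / 2, ?_⟩
    field_simp
    ring

/-- The variant of `QR_of_gen` with squares. -/
theorem QR_of_gen_sq [Finite F] {s : ℕ} {g : GL D.Idx F} (hg : g ∈ K) {c : Fˣ} {χ : Fˣ} (hχ' : χ = c ^ (2 : ℤ) ∨ χ = c ^ (-2 : ℤ))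
    (hconj : ∀ t, g * xG ax s t * g⁻¹ = xG ax s ((χ : F) * t))
    (hc : ∀ u : Fˣ, u ∈ Subgroup.zpowers c) (h0 : xG ax s 1 ∈ K) :
    QR ax K s := by
  let A : Subgroup Fˣ :=
    { carrier := {u | ∃ g' ∈ K, ∀ t, g' * xG ax s t * g'⁻¹ = xG ax s ((u : F) * t)}
      one_mem' := ⟨1, K.one_mem, by simp⟩
      mul_mem' := by
        rintro u v ⟨g₁, hg₁, e₁⟩ ⟨g₂, hg₂, e₂⟩
        refine ⟨g₁ * g₂, K.mul_mem hg₁ hg₂, fun t => ?_⟩
        have e : g₁ * g₂ * xG ax s t * (g₁ * g₂)⁻¹ = g₁ * (g₂ * xG ax s t * g₂⁻¹) * g₁⁻¹ := by group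
        rw [e, e₂, e₁]
        simp [mul_assoc]
      inv_mem' := by
        rintro u ⟨g₁, hg₁, e₁⟩
        refine ⟨g₁⁻¹, K.inv_mem hg₁, fun t => ?_⟩
        have e := e₁ ((u⁻¹ : Fˣ) * t)
        have e2 : (u : F) * (((u⁻¹ : Fˣ) : F) * t) = t := by
          rw [← mul_assoc, ← Units.val_mul]
          simp
        rw [e2] at e
        rw [← e]
        group }
  have hA : Subgroup.zpowers χ ≤ A := by
    rw [Subgroup.zpowers_le]
    exact ⟨g, hg, hconj⟩
  have hsq : ∀ u : Fˣ, u ^ 2 ∈ A := by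
    intro u
    obtain ⟨k, hk⟩ := hc u
    simp only at hk
    apply hA
    rcases hχ' with rfl | rfl
    · refine ⟨k, ?_⟩
      simp only
      rw [← hk, ← zpow_mul, ← zpow_natCast, ← zpow_mul]
      congr 1
      push_cast
      ring
    · refine ⟨-k, ?_⟩
      simp only
      rw [← hk, ← zpow_mul, ← zpow_natCast, ← zpow_mul]
      congr 1
      push_cast
      ring
  have hsq' : ∀ y : F, xG ax s (y ^ 2) ∈ K := by
    intro y
    by_cases hy : y = 0
    · rw [hy]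
      simp [K.one_mem]
    · obtain ⟨g', hg', e⟩ := hsq (Units.mk0 y hy)
      have e2 := e 1
      simp only [Units.val_pow_eq_pow_val, Units.val_mk0, mul_one] at e2
      rw [← e2]
      exact K.mul_mem (K.mul_mem hg' h0) (K.inv_mem hg')
  intro t
  obtain ⟨y, z, rfl⟩ := exists_sq_sub_sq t
  have e : xG ax s (y ^ 2 - z ^ 2) = xG ax s (y ^ 2) * (xG ax s (z ^ 2))⁻¹ := by
    rw [xG_inv, xG_add, sub_eq_add_neg]
  rw [e]
  exact K.mul_mem (hsq' y) (K.inv_mem (hsq' z))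

include h h2 in
/-- The step `π`: if `n` is in `K`, the root subgroups in `K` are permuted. -/
lemma QR_pi {l : List ℕ} (hl : ∀ i ∈ l, i < D.rank) (hn : nw D ax l ∈ K) {r : ℕ} (hr : r < D.nroots)
    (hQ : QR ax K r) : QR ax K (wWord D l r) := by
  obtain ⟨c, hc⟩ := exists_isNor_nw h h2 ax hl
  intro t
  have e := hc.conj ⟨r, hr⟩ ((c ⟨r, hr⟩ : F)⁻¹ * t)
  have e2 : (c ⟨r, hr⟩ : F) * ((c ⟨r, hr⟩ : F)⁻¹ * t) = t := by
    have := (c ⟨r, hr⟩).ne_zero
    field_simp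
  rw [e2, wPw_val h hl] at e
  rw [← e]
  exact K.mul_mem (K.mul_mem hn (hQ _)) (K.inv_mem hn)

include h in
/-- `h` splits off `b = h u`. -/
lemma split_hb [Finite F] {s s₁ : ℕ} (hs : s < D.nroots) (hs₁ : s₁ < D.nroots) (c : Fˣ) (h0 : pair D s s₁ = 0)
    (hb : hG ax s c * xG ax s₁ 1 ∈ K) : hG ax s c ∈ K ∧ xG ax s₁ 1 ∈ K := by
  classical
  have := Fintype.ofFinite F
  set y := hW D s c with hy
  have ht : hG ax s c = tor D y := hG_eq_tor ax h hs c
  rw [ht] at hb ⊢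
  have hcomm : Commute (tor D y) (xG ax s₁ 1) := by
    have e := tor_conj_xG ax h y hs₁ 1
    rw [hy, chi_hW h _ _ hs₁, h0] at e
    simp only [zpow_zero, Units.val_one, mul_one] at e
    rw [← hy] at e
    rw [Commute, SemiconjBy]
    calc tor D y * xG ax s₁ 1 = tor D y * xG ax s₁ 1 * (tor D y)⁻¹ * tor D y := by group
      _ = xG ax s₁ 1 * tor D y := by rw [e]
  set N := Nat.card Fˣ with hN
  have hN1 : (N : F) = -1 := by
    have e1 : Nat.card Fˣ = Nat.card F - 1 := Nat.card_units F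
    have e2 : 1 ≤ Nat.card F := Nat.card_pos
    have e3 : ((Nat.card F : ℕ) : F) = 0 := by
      rw [Nat.card_eq_fintype_card]
      simp
    have e4 : Nat.card F = N + 1 := by omega
    rw [e4] at e3
    push_cast at e3
    linear_combination e3
  have hpow : (tor D y) ^ N = 1 := by
    have e : (tor D y) ^ N = tor D (y ^ N) := by
      exact ((torHom D).map_pow y N).symm
    rw [e]
    have e2 : y ^ N = 1 := by
      funext j
      simp only [Pi.pow_apply, hy, hW, Pi.one_apply]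
      rw [← zpow_natCast, ← zpow_mul, mul_comm, zpow_mul, zpow_natCast, pow_card_eq_one']
      simp
    rw [e2, tor_one]
  have hb2 := K.pow_mem hb N
  rw [hcomm.mul_pow, hpow, one_mul, xG_pow, hN1, mul_one] at hb2
  have hu : xG ax s₁ 1 ∈ K := by
    have := K.inv_mem hb2
    rwa [xG_inv, neg_neg] at this
  refine ⟨?_, hu⟩
  have := K.mul_mem hb (K.inv_mem hu)
  rwa [mul_inv_cancel_right] at this

include h h2 in
/-- The core of the two-generator argument: from `a = n x_r(1)` and the diagonal element `k`,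
we get `n` and the root subgroups of `r` and `πr`. -/
theorem core_nr {l : List ℕ} (hl : ∀ i ∈ l, i < D.rank) {r : ℕ} (hr : r < D.nroots)
    {k : GL D.Idx F} (hk : k ∈ K) (hkH : k ∈ D.diagonalSubgroup F) {χ χ' : Fˣ}
    (hχ : ∀ t, k * xG ax r t * k⁻¹ = xG ax r ((χ : F) * t))
    (hχ' : ∀ t, k * xG ax (wWord D l r) t * k⁻¹ = xG ax (wWord D l r) ((χ' : F) * t))
    (hne : (χ : F) ≠ 1) (hne' : (χ' : F) ≠ 1) (hgen : ∀ u : Fˣ, u ∈ Subgroup.zpowers χ')
    (ha : nw D ax l * xG ax r 1 ∈ K) : nw D ax l ∈ K ∧ QR ax K r := by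
  obtain ⟨c, hc⟩ := exists_isNor_nw h h2 ax hl
  set n := nw D ax l with hn
  set y := xG ax r 1 with hy
  set r' := wWord D l r with hr'
  have hrv : ((wPw h l ⟨r, hr⟩ : Fin D.nroots) : ℕ) = r' := wPw_val h hl ⟨r, hr⟩
  set γ : F := (c ⟨r, hr⟩ : F) with hγ
  have hγ0 : γ ≠ 0 := (c ⟨r, hr⟩).ne_zero
  have hconj : ∀ t, n * xG ax r t * n⁻¹ = xG ax r' (γ * t) := by
    intro t
    have e := hc.conj ⟨r, hr⟩ t
    rw [hrv] at e
    exact e
  -- z = a k a⁻¹
  set m := n * k * n⁻¹ with hm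
  have hmH : m ∈ D.diagonalSubgroup F := nw_conj_H h h2 ax hl hkH
  have hmk : m * k = k * m := diagonal_comm ax h hmH hkH
  have hz : (n * y) * k * (n * y)⁻¹ = xG ax r' (γ * (1 - χ)) * m := by
    have e1 : y * k * y⁻¹ = xG ax r (1 - χ) * k := by
      have e2 : k * y⁻¹ = xG ax r (-(χ : F)) * k := by
        rw [hy, xG_inv]
        have := hχ (-1)
        rw [mul_neg_one] at this
        rw [← this]
        group
      calc y * k * y⁻¹ = y * (k * y⁻¹) := by group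
        _ = xG ax r (1 - χ) * k := by
          rw [e2, ← mul_assoc, hy, xG_add, sub_eq_add_neg]
    calc (n * y) * k * (n * y)⁻¹ = n * (y * k * y⁻¹) * n⁻¹ := by group
      _ = n * (xG ax r (1 - χ) * k) * n⁻¹ := by rw [e1]
      _ = (n * xG ax r (1 - χ) * n⁻¹) * m := by rw [hm]; group
      _ = xG ax r' (γ * (1 - χ)) * m := by rw [hconj]
  have hzK : xG ax r' (γ * (1 - χ)) * m ∈ K := by
    rw [← hz]
    exact K.mul_mem (K.mul_mem ha hk) (K.inv_mem ha)
  set δ : F := γ * (1 - χ) with hδ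
  have hcomm : (xG ax r' δ * m) * k * (xG ax r' δ * m)⁻¹ * k⁻¹ = xG ax r' (δ * (1 - χ')) := by
    have e1 : (xG ax r' δ * m) * k * (xG ax r' δ * m)⁻¹ = xG ax r' δ * k * (xG ax r' δ)⁻¹ := by
      calc (xG ax r' δ * m) * k * (xG ax r' δ * m)⁻¹ = xG ax r' δ * (m * k) * m⁻¹ * (xG ax r' δ)⁻¹ := by group
        _ = xG ax r' δ * k * (xG ax r' δ)⁻¹ := by rw [hmk]; group
    rw [e1]
    calc xG ax r' δ * k * (xG ax r' δ)⁻¹ * k⁻¹ = xG ax r' δ * (k * (xG ax r' δ)⁻¹ * k⁻¹) := by group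
      _ = xG ax r' (δ * (1 - χ')) := by
        rw [xG_inv, hχ', xG_add]
        congr 1
        ring
  have hxK : xG ax r' (δ * (1 - χ')) ∈ K := by
    rw [← hcomm]
    exact K.mul_mem (K.mul_mem (K.mul_mem hzK hk) (K.inv_mem hzK)) (K.inv_mem hk)
  have hd0 : δ * (1 - χ') ≠ 0 :=
    mul_ne_zero (mul_ne_zero hγ0 (sub_ne_zero.mpr hne.symm)) (sub_ne_zero.mpr hne'.symm)
  have hQ' : QR ax K r' := QR_of_gen ax K hk hχ' hgen hd0 hxK
  have hQ : QR ax K r := by
    intro t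
    have e : xG ax r t = (n * y)⁻¹ * xG ax r' (γ * t) * (n * y) := by
      rw [← hconj t]
      have : y⁻¹ * xG ax r t * y = xG ax r t := by
        rw [hy, xG_inv, xG_add, xG_add]
        congr 1
        ring
      calc xG ax r t = y⁻¹ * xG ax r t * y := this.symm
        _ = _ := by group
    rw [e]
    exact K.mul_mem (K.mul_mem (K.inv_mem ha) (hQ' _)) ha
  refine ⟨?_, hQ⟩
  have := K.mul_mem ha (K.inv_mem (hQ 1))
  rwa [mul_inv_cancel_right] at this

include h h2 in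
/-- With `n` and the diagonal `k` in `K`, the conjugate `n k n⁻¹` acts on `x_{π s₀}`. -/
lemma conj_conj {l : List ℕ} (hl : ∀ i ∈ l, i < D.rank) {s₀ : ℕ} (hs₀ : s₀ < D.nroots)
    {k : GL D.Idx F} {χ : Fˣ} (hχ : ∀ t, k * xG ax s₀ t * k⁻¹ = xG ax s₀ ((χ : F) * t)) (t : F) :
    (nw D ax l * k * (nw D ax l)⁻¹) * xG ax (wWord D l s₀) t * (nw D ax l * k * (nw D ax l)⁻¹)⁻¹ =
      xG ax (wWord D l s₀) ((χ : F) * t) := by
  obtain ⟨c, hc⟩ := exists_isNor_nw h h2 ax hl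
  set n := nw D ax l with hn
  have hrv : ((wPw h l ⟨s₀, hs₀⟩ : Fin D.nroots) : ℕ) = wWord D l s₀ := wPw_val h hl ⟨s₀, hs₀⟩
  set γ : F := (c ⟨s₀, hs₀⟩ : F) with hγ
  have hγ0 : γ ≠ 0 := (c ⟨s₀, hs₀⟩).ne_zero
  have hconj : ∀ t, n * xG ax s₀ t * n⁻¹ = xG ax (wWord D l s₀) (γ * t) := by
    intro t
    have e := hc.conj ⟨s₀, hs₀⟩ t
    rw [hrv] at e
    exact e
  have e1 : xG ax (wWord D l s₀) t = n * xG ax s₀ (γ⁻¹ * t) * n⁻¹ := by
    rw [hconj]
    congr 1
    field_simp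
  have e2 : xG ax (wWord D l s₀) ((χ : F) * t) = n * xG ax s₀ (χ * (γ⁻¹ * t)) * n⁻¹ := by
    rw [hconj]
    congr 1
    field_simp
  rw [e1, e2, ← hχ]
  group

end Cfsg.Agent.Lib.ChevTwo.Core
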