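import Cfsg.Agent.Lib.ChevTwo.Certs

/-!
Each Chevalley group of exceptional type, and of type `B₂`, `D₄`, is generated by two elements.
-/

set_option autoImplicit false
set_option linter.unusedSectionVars false
set_option linter.unusedVariables false

namespace Cfsg.Agent.Lib.ChevTwo.Final

open scoped MatrixGroups Matrix
open Cfsg Lie ChevalleyDatum
open Cfsg.Agent.Lib.Chev
open Tables Tables2 Tables3 Tables4 Raise Basic AxBasic Torus Products Products2 Mono1 Mono2 Mono3 Bn ChevSimple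
open Cfsg.Agent.Lib.Mono.Gen Cfsg.Agent.Lib.ChevTwo.Core Cfsg.Agent.Lib.ChevTwo.Run Cfsg.Agent.Lib.ChevTwo.Paths
  Cfsg.Agent.Lib.ChevTwo.Certs

variable {D : ChevalleyDatum} {F : Type*} [Field F]

variable (h : Tab D) (h2 : Tab2 D) (ax : Ax D F)

include h h2 in
lemma nw_mem_group {l : List ℕ} (hl : ∀ i ∈ l, i < D.rank) : nw D ax l ∈ D.group F :=
  monomial_le_group h ax (nw_mem_monomial_aux h h2 ax hl)

lemma l_of_check {l : List ℕ} {two : Bool} {σ : St} {ss : List Step} (hC : checkRun D l two σ ss = true) :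
    ∀ i ∈ l, i < D.rank := by
  simp only [checkRun, Bool.and_eq_true, List.all_eq_true, decide_eq_true_eq] at hC
  exact hC.1

include h h2 ax in
theorem two_B [Finite F] {l : List ℕ} {s s₁ s₀ r e : ℕ} {ss : List Step} (hC : checkB D l s s₁ s₀ r e ss = true)
    {c : Fˣ} (hc : ∀ u : Fˣ, u ∈ Subgroup.zpowers c) (hc1 : (c : F) ≠ 1) :
    ∃ a b : ↥(D.group F), Subgroup.closure ({a, b} : Set ↥(D.group F)) = ⊤ := by
  have hC' := hC
  simp only [checkB, Bool.and_eq_true, decide_eq_true_eq, beq_iff_eq, Bool.or_eq_true] at hC'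
  obtain ⟨⟨⟨⟨⟨⟨⟨⟨⟨⟨hs, hs₁⟩, hs₀⟩, hr⟩, he₀⟩, hp₀⟩, hp₁⟩, hp₂⟩, hp₃⟩, he⟩, hrun⟩ := hC'
  have hl := l_of_check hrun
  refine exists_two_of_le h ax (a := nw D ax l * xG ax r 1) (b := hG ax s c * xG ax s₁ 1)
    (Subgroup.mul_mem _ (nw_mem_group h h2 ax hl) (xG_mem_group ax hr 1))
    (Subgroup.mul_mem _ (hG_mem_group h ax hs _) (xG_mem_group ax hs₁ 1)) ?_
  exact group_le_B h h2 ax _ hC hc hc1 (Subgroup.subset_closure (by simp)) (Subgroup.subset_closure (by simp))

include h h2 ax in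
theorem two_C (htwo : ∀ t : F, t = 0 ∨ t = 1) {l : List ℕ} {s i : ℕ} {ss : List Step} (hC : checkC D l s i ss = true) :
    ∃ a b : ↥(D.group F), Subgroup.closure ({a, b} : Set ↥(D.group F)) = ⊤ := by
  have hC' := hC
  simp only [checkC, Bool.and_eq_true, decide_eq_true_eq] at hC'
  obtain ⟨⟨⟨⟨hs, hi⟩, h1⟩, h3⟩, hrun⟩ := hC'
  have hl := l_of_check hrun
  have hp := h.simple_lt i hi
  refine exists_two_of_le h ax (a := nw D ax l)
    (b := xG ax s (1 : F) * (xG ax (D.simple i) 1 * xG ax (D.neg (D.simple i)) 1))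
    (nw_mem_group h h2 ax hl)
    (Subgroup.mul_mem _ (xG_mem_group ax hs 1) (Subgroup.mul_mem _ (xG_mem_group ax hp 1)
      (xG_mem_group ax (h.neg_lt _ hp) 1))) ?_
  exact group_le_C h h2 ax _ htwo hC (Subgroup.subset_closure (by simp)) (Subgroup.subset_closure (by simp))

include h h2 ax in
theorem two_P (htwo : ∀ t : F, t = 0 ∨ t = 1) {l : List ℕ} {a b : ℕ} {ss : List Step} (hC : checkP D l a b ss = true) :
    ∃ a b : ↥(D.group F), Subgroup.closure ({a, b} : Set ↥(D.group F)) = ⊤ := by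
  have hC' := hC
  simp only [checkP, Bool.and_eq_true, decide_eq_true_eq] at hC'
  obtain ⟨⟨hs, hi⟩, hrun⟩ := hC'
  have hl := l_of_check hrun
  refine exists_two_of_le h ax (a := nw D ax l) (b := xG ax a (1 : F) * xG ax b 1)
    (nw_mem_group h h2 ax hl) (Subgroup.mul_mem _ (xG_mem_group ax hs 1) (xG_mem_group ax hi 1)) ?_
  exact group_le_P h h2 ax _ htwo hC (Subgroup.subset_closure (by simp)) (Subgroup.subset_closure (by simp))

/-- The statement. -/
theorem exists_two_gen {F : Type*} [Field F] [Finite F] (D : ChevalleyDatum)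
    (hD : D ∈ [chevG2, chevB2, chevD4, chevF4, chevE6, chevE7, chevE8])
    (hF : D ∈ [chevB2, chevG2] → ∃ x : F, x ≠ 0 ∧ x ≠ 1) :
    ∃ a b : ↥(D.group F), Subgroup.closure ({a, b} : Set ↥(D.group F)) = ⊤ := by
  have ax := Cfsg.Agent.Lib.Lie.AxOf.ax_of_mem (F := F) hD
  have hT := Cfsg.Agent.Lib.Chev.Tables.tab_of_mem hD
  have hT2 := Cfsg.Agent.Lib.Chev.Tables2.tab2_of_mem hD
  by_cases hq : ∃ x : F, x ≠ 0 ∧ x ≠ 1
  · obtain ⟨x, hx0, hx1⟩ := hq
    obtain ⟨c, hc⟩ := IsCyclic.exists_generator (α := Fˣ)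
    have hc1 : (c : F) ≠ 1 := by
      intro e
      have e1 : c = 1 := Units.ext e
      obtain ⟨k, hk⟩ := hc (Units.mk0 x hx0)
      simp only [e1, one_zpow] at hk
      apply hx1
      have := congrArg (fun z : Fˣ => (z : F)) hk
      simpa using this.symm
    simp only [List.mem_cons, List.not_mem_nil, or_false] at hD
    rcases hD with rfl | rfl | rfl | rfl | rfl | rfl | rfl
    · exact two_B hT hT2 ax chkBG2 hc hc1
    · exact two_B hT hT2 ax chkBB2 hc hc1
    · exact two_B hT hT2 ax chkBD4 hc hc1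
    · exact two_B hT hT2 ax chkBF4 hc hc1
    · exact two_B hT hT2 ax chkBE6 hc hc1
    · exact two_B hT hT2 ax chkBE7 hc hc1
    · exact two_B hT hT2 ax chkBE8 hc hc1
  · have htwo : ∀ t : F, t = 0 ∨ t = 1 := by
      intro t
      by_contra hne
      push_neg at hne
      exact hq ⟨t, hne.1, hne.2⟩
    simp only [List.mem_cons, List.not_mem_nil, or_false] at hD
    rcases hD with rfl | rfl | rfl | rfl | rfl | rfl | rfl
    · exact absurd (hF (by simp)) hq
    · exact absurd (hF (by simp)) hq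
    · exact two_C hT hT2 ax htwo chkCD4
    · exact two_P hT hT2 ax htwo chkPF4
    · exact two_C hT hT2 ax htwo chkCE6
    · exact two_C hT hT2 ax htwo chkCE7
    · exact two_C hT hT2 ax htwo chkCE8

end Cfsg.Agent.Lib.ChevTwo.Final
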