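import Cfsg.Agent.Lib.ChevTwo.Run
import Cfsg.Agent.Lib.Lie.AxOf

/-!
The two generators, given certificates.
-/

set_option autoImplicit false
set_option linter.unusedSectionVars false
set_option linter.unusedVariables false

namespace Cfsg.Agent.Lib.ChevTwo.Paths

open scoped MatrixGroups Matrix
open Cfsg Lie ChevalleyDatum
open Cfsg.Agent.Lib.Chev
open Tables Tables2 Tables3 Tables4 Raise Basic AxBasic Torus Products Products2 Mono1 Mono2 Mono3 Bn ChevSimple
open Cfsg.Agent.Lib.Mono.Gen Cfsg.Agent.Lib.ChevTwo.Core Cfsg.Agent.Lib.ChevTwo.Run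

/-- The check for the generators `n x_r(1)`, `h_s(c) x_{s₁}(1)`. -/
def checkB (D : ChevalleyDatum) (l : List ℕ) (s s₁ s₀ r e : ℕ) (ss : List Step) : Bool :=
  decide (s < D.nroots) && decide (s₁ < D.nroots) && decide (s₀ < D.nroots) && decide (r < D.nroots) &&
    (wWord D l s₀ == s₁) && (D.pairing s s₁ == 0) && ((D.pairing s r).natAbs == 1) &&
    ((D.pairing s (wWord D l r)).natAbs == 1) && ((D.pairing s s₀).natAbs == e) && (e == 1 || e == 2) &&
    checkRun D l false ⟨[r, s₁], [], []⟩ ss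

/-- The check for the generators `n`, `x_s(1) x_r(1) x_{-r}(1)`, for `r` fundamental. -/
def checkC (D : ChevalleyDatum) (l : List ℕ) (s i : ℕ) (ss : List Step) : Bool :=
  decide (s < D.nroots) && decide (i < D.rank) && comm2 D (D.simple i) s && comm2 D (D.neg (D.simple i)) s &&
    checkRun D l true ⟨[s], [D.simple i], []⟩ ss

/-- The check for the generators `n`, `x_a(1) x_b(1)`. -/
def checkP (D : ChevalleyDatum) (l : List ℕ) (a b : ℕ) (ss : List Step) : Bool :=
  decide (a < D.nroots) && decide (b < D.nroots) &&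
    checkRun D l true ⟨[], [], [(a, b)]⟩ ss

variable {D : ChevalleyDatum} {F : Type*} [Field F]

variable (h : Tab D) (h2 : Tab2 D) (ax : Ax D F) (K : Subgroup (GL D.Idx F))

lemma zpowers_of_natAbs_one {c χ : Fˣ} (hc : ∀ u : Fˣ, u ∈ Subgroup.zpowers c) {k : ℤ} (hk : k.natAbs = 1)
    (hχ : χ = c ^ k) (u : Fˣ) : u ∈ Subgroup.zpowers χ := by
  obtain ⟨m, rfl⟩ := hc u
  rcases Int.natAbs_eq k with e | e <;> rw [hk] at e <;> subst e <;> subst hχ
  · exact ⟨m, by simp⟩
  · exact ⟨-m, by simp⟩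

lemma val_ne_one_of_natAbs_one {c : Fˣ} (hc1 : (c : F) ≠ 1) {k : ℤ} (hk : k.natAbs = 1) :
    ((c ^ k : Fˣ) : F) ≠ 1 := by
  intro e
  apply hc1
  have e2 : c ^ k = 1 := Units.ext e
  rcases Int.natAbs_eq k with e3 | e3 <;> rw [hk] at e3 <;> subst e3
  · simpa using congrArg (fun z : Fˣ => (z : F)) e2
  · have : c = 1 := by simpa using e2
    rw [this]
    simp

include h h2 in
/-- From the check to the group. -/
theorem group_le_B [Finite F] {l : List ℕ} {s s₁ s₀ r e : ℕ} {ss : List Step} (hC : checkB D l s s₁ s₀ r e ss = true)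
    {c : Fˣ} (hc : ∀ u : Fˣ, u ∈ Subgroup.zpowers c) (hc1 : (c : F) ≠ 1)
    (ha : nw D ax l * xG ax r 1 ∈ K) (hb : hG ax s c * xG ax s₁ 1 ∈ K) : D.group F ≤ K := by
  simp only [checkB, Bool.and_eq_true, decide_eq_true_eq, beq_iff_eq, Bool.or_eq_true] at hC
  obtain ⟨⟨⟨⟨⟨⟨⟨⟨⟨⟨hs, hs₁⟩, hs₀⟩, hr⟩, he₀⟩, hp₀⟩, hp₁⟩, hp₂⟩, hp₃⟩, he⟩, hrun⟩ := hC
  simp only [← Cfsg.Agent.Lib.Lie.AxOf.pair_eq] at hp₀ hp₁ hp₂ hp₃
  have hl : ∀ i ∈ l, i < D.rank := by
    have := hrun
    simp only [checkRun, Bool.and_eq_true, List.all_eq_true, decide_eq_true_eq] at this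
    exact this.1
  obtain ⟨hk, hu⟩ := split_hb h ax K hs hs₁ c hp₀ hb
  have ht : hG ax s c = tor D (hW D s c) := hG_eq_tor ax h hs c
  have hkH : hG ax s (c : F) ∈ D.diagonalSubgroup F := hG_mem_diagonal ax hs c.ne_zero
  have hχ : ∀ {x : ℕ}, x < D.nroots → ∀ t, hG ax s c * xG ax x t * (hG ax s c)⁻¹ = xG ax x (((c ^ pair D s x : Fˣ) : F) * t) := by
    intro x hx t
    rw [ht, tor_conj_xG ax h _ hx, chi_hW h _ _ hx]
  have hrl : wWord D l r < D.nroots := wWord_lt h hl hr
  obtain ⟨hn, hQr⟩ := core_nr h h2 ax K hl hr hk hkH (hχ hr) (hχ hrl) (val_ne_one_of_natAbs_one hc1 hp₁)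
    (val_ne_one_of_natAbs_one hc1 hp₂) (zpowers_of_natAbs_one hc hp₂ rfl) ha
  have hm : nw D ax l * hG ax s c * (nw D ax l)⁻¹ ∈ K := K.mul_mem (K.mul_mem hn hk) (K.inv_mem hn)
  have hmc := conj_conj h h2 ax hl hs₀ (hχ hs₀)
  rw [he₀] at hmc
  have hQs : QR ax K s₁ := by
    rcases he with rfl | rfl
    · exact QR_of_gen ax K hm hmc (zpowers_of_natAbs_one hc hp₃ rfl) one_ne_zero hu
    · rcases Int.natAbs_eq (pair D s s₀) with e3 | e3 <;> rw [hp₃] at e3
      · refine QR_of_gen_sq ax K hm (c := c) (Or.inl ?_) hmc hc hu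
        rw [e3]; rfl
      · refine QR_of_gen_sq ax K hm (c := c) (Or.inr ?_) hmc hc hu
        rw [e3]; rfl
  refine group_le_of_check h h2 ax K hn (two := false) (by simp) (σ := ⟨[r, s₁], [], []⟩) ⟨?_, ?_, ?_⟩ hrun
  · intro x hx
    simp only [List.mem_cons, List.not_mem_nil, or_false] at hx
    rcases hx with rfl | rfl
    · exact hQr
    · exact hQs
  · intro x hx
    simp at hx
  · intro x hx
    simp at hx

section two

variable (htwo : ∀ t : F, t = 0 ∨ t = 1)

include htwo in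
/-- The braid relation over the field with two elements. -/
lemma cube_eq_one {i : ℕ} (hi : i < D.rank) :
    (xG ax (D.simple i) (1 : F) * xG ax (D.neg (D.simple i)) 1) ^ 3 = 1 := by
  have e := ax.n_self i hi (1 : F)
  have e1 : sG ax i * xG ax (D.simple i) (1 : F) = xG ax (D.neg (D.simple i)) (-1) * sG ax i :=
    Units.ext (by simpa [sG_val] using e)
  have hm1 : (-1 : F) = 1 := neg_one_eq htwo
  rw [hm1] at e1
  have e2 : sG ax i = xG ax (D.simple i) 1 * xG ax (D.neg (D.simple i)) 1 * xG ax (D.simple i) 1 := by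
    simp only [sG, nG, inv_one, hm1]
  rw [e2] at e1
  set P := xG ax (D.simple i) (1 : F) with hP
  set Q := xG ax (D.neg (D.simple i)) (1 : F) with hQ
  have hPP : P * P = 1 := xG_one_sq ax htwo _
  have hQQ : Q * Q = 1 := xG_one_sq ax htwo _
  have br : P * Q * P = Q * P * Q := by
    have := mul_right_cancel (b := P) (a := P * Q * P) (c := Q * P * Q) (by
      calc P * Q * P * P = Q * (P * Q * P) := e1
        _ = Q * P * Q * P := by group)
    exact this
  calc (P * Q) ^ 3 = (P * Q * P) * (Q * P * Q) := by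
        simp only [pow_succ, pow_zero, one_mul]
        group
    _ = (P * Q * P) * (P * Q * P) := by rw [br]
    _ = P * Q * (P * P) * Q * P := by group
    _ = P * (Q * Q) * P := by rw [hPP]; group
    _ = 1 := by rw [hQQ, mul_one, hPP]

include h h2 htwo in
theorem group_le_C {l : List ℕ} {s i : ℕ} {ss : List Step} (hC : checkC D l s i ss = true)
    (ha : nw D ax l ∈ K)
    (hb : xG ax s (1 : F) * (xG ax (D.simple i) 1 * xG ax (D.neg (D.simple i)) 1) ∈ K) : D.group F ≤ K := by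
  simp only [checkC, Bool.and_eq_true, decide_eq_true_eq] at hC
  obtain ⟨⟨⟨⟨hs, hi⟩, h1⟩, h3⟩, hrun⟩ := hC
  have e1 := comm2_sound ax htwo h1
  have e3 := comm2_sound ax htwo h3
  set X := xG ax s (1 : F) with hX
  set P := xG ax (D.simple i) (1 : F) with hP
  set Q := xG ax (D.neg (D.simple i)) (1 : F) with hQ
  have hcomm : Commute X (P * Q) := Commute.mul_right e1 e3
  have hXX : X * X = 1 := xG_one_sq ax htwo _
  have hC3 : (P * Q) ^ 3 = 1 := cube_eq_one ax htwo hi
  have hb3 := K.pow_mem hb 3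
  rw [hcomm.mul_pow, hC3, mul_one] at hb3
  have hX3 : X ^ 3 = X := by
    calc X ^ 3 = (X * X) * X := by simp only [pow_succ, pow_zero, one_mul]
      _ = X := by rw [hXX, one_mul]
  rw [hX3] at hb3
  have hCK : P * Q ∈ K := by
    have := K.mul_mem (K.inv_mem hb3) hb
    rwa [inv_mul_cancel_left] at this
  refine group_le_of_check h h2 ax K ha (two := true) (fun _ => htwo) (σ := ⟨[s], [D.simple i], []⟩) ⟨?_, ?_, ?_⟩ hrun
  · intro x hx
    simp only [List.mem_cons, List.not_mem_nil, or_false] at hx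
    subst hx
    exact QR_of_one ax K htwo hb3
  · intro x hx
    simp only [List.mem_cons, List.not_mem_nil, or_false] at hx
    subst hx
    exact hCK
  · intro x hx
    simp at hx

include h h2 htwo in
theorem group_le_P {l : List ℕ} {a b : ℕ} {ss : List Step} (hC : checkP D l a b ss = true)
    (ha : nw D ax l ∈ K) (hb : xG ax a (1 : F) * xG ax b 1 ∈ K) : D.group F ≤ K := by
  simp only [checkP, Bool.and_eq_true, decide_eq_true_eq] at hC
  obtain ⟨⟨hs, hi⟩, hrun⟩ := hC
  refine group_le_of_check h h2 ax K ha (two := true) (fun _ => htwo) (σ := ⟨[], [], [(a, b)]⟩) ⟨?_, ?_, ?_⟩ hrun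
  · intro x hx
    simp at hx
  · intro x hx
    simp at hx
  · intro x hx
    simp only [List.mem_cons, List.not_mem_nil, or_false] at hx
    subst hx
    exact hb

end two

include h ax in
/-- Transfer to the subgroup. -/
lemma exists_two_of_le {a b : GL D.Idx F} (ha : a ∈ D.group F) (hb : b ∈ D.group F)
    (hle : D.group F ≤ Subgroup.closure {a, b}) :
    ∃ a b : ↥(D.group F), Subgroup.closure ({a, b} : Set ↥(D.group F)) = ⊤ := by
  refine ⟨⟨a, ha⟩, ⟨b, hb⟩, ?_⟩
  apply Subgroup.map_injective (D.group F).subtype_injective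
  rw [MonoidHom.map_closure, Set.image_pair, ← MonoidHom.range_eq_map, Subgroup.range_subtype]
  apply le_antisymm
  · rw [Subgroup.closure_le]
    rintro x (rfl | rfl)
    · exact ha
    · exact hb
  · exact hle

end Cfsg.Agent.Lib.ChevTwo.Paths
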