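import Cfsg.Agent.Lib.ChevTwo.Core

/-!
Checkable certificates: from a monomial word `n` and some root subgroups in `K` to the whole group.
Over the field with two elements there are also steps with the elements `x_q(1) x_{-q}(1)` and
`x_a(1) x_b(1)`.
-/

set_option autoImplicit false
set_option linter.unusedSectionVars false
set_option linter.unusedVariables false

namespace Cfsg.Agent.Lib.ChevTwo.Run

open scoped MatrixGroups Matrix
open Cfsg Lie ChevalleyDatum
open Cfsg.Agent.Lib.Chev
open Tables Tables2 Tables3 Tables4 Raise Basic AxBasic Torus Products Products2 Mono1 Mono2 Mono3 Bn ChevSimple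
open Cfsg.Agent.Lib.Mono.Gen Cfsg.Agent.Lib.ChevTwo.Core

/-- The steps of a certificate. -/
inductive Step where
  | pi (a : ℕ)
  | comm (a b r : ℕ) (c : ℤ)
  | piC (q : ℕ)
  | negC (q : ℕ)
  | refl (u t w : ℕ) (c : ℤ)
  | piP (a b : ℕ)
  | isoP (a b c d w : ℕ) (e : ℤ)
  | sepP (a b : ℕ)

/-- The state of the check: roots known, `q` with `x_q(1) x_{-q}(1)` known, pairs known. -/
structure St where
  known : List ℕ
  cs : List ℕ
  prs : List (ℕ × ℕ)

/-- `x_p(1)` and `x_q(1)` commute in characteristic two. -/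
def comm2 (D : ChevalleyDatum) (p q : ℕ) : Bool :=
  decide (p < D.nroots) && decide (q < D.nroots) && (q != D.neg p) &&
    (q == p || (D.commTerms p q).all fun e => e.2.1 % 2 == 0)

/-- One step of the check. -/
def Step.run (D : ChevalleyDatum) (l : List ℕ) (two : Bool) (σ : St) : Step → Option St
  | .pi a => if σ.known.contains a && decide (a < D.nroots) then
      some { σ with known := wWord D l a :: σ.known } else none
  | .comm a b r c => if σ.known.contains a && σ.known.contains b && decide (a < D.nroots) && decide (b < D.nroots) &&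
        (b != a) && (b != D.neg a) && (c == 1 || c == -1) && (D.commTerms a b == [(r, c, 1, 1)]) then
      some { σ with known := r :: σ.known } else none
  | .piC q => if two && σ.cs.contains q && decide (q < D.nroots) then
      some { σ with cs := wWord D l q :: σ.cs } else none
  | .negC q => if two && σ.cs.contains q && decide (q < D.nroots) then
      some { σ with cs := D.neg q :: σ.cs } else none
  | .refl u t w c => if two && σ.cs.contains (D.neg u) && σ.known.contains t && decide (u < D.nroots) && decide (t < D.nroots)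
        && (t != u) && (t != D.neg u) && comm2 D (D.neg u) t && (c == 1 || c == -1) && (D.commTerms u t == [(w, c, 1, 1)]) then
      some { σ with known := w :: σ.known } else none
  | .piP a b => if two && σ.prs.contains (a, b) && decide (a < D.nroots) && decide (b < D.nroots) then
      some { σ with prs := (wWord D l a, wWord D l b) :: σ.prs } else none
  | .isoP a b c d w e => if two && σ.prs.contains (a, b) && σ.prs.contains (c, d) &&
        comm2 D d c && comm2 D d b && comm2 D d a && comm2 D b a && comm2 D b c &&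
        (c != a) && (c != D.neg a) && (e == 1 || e == -1) && (D.commTerms a c == [(w, e, 1, 1)]) then
      some { σ with known := w :: σ.known } else none
  | .sepP a b => if two && σ.prs.contains (a, b) && σ.known.contains a && decide (a < D.nroots) && decide (b < D.nroots) then
      some { σ with known := b :: σ.known } else none

/-- Running the steps. -/
def runAll (D : ChevalleyDatum) (l : List ℕ) (two : Bool) : St → List Step → Option St
  | σ, [] => some σ
  | σ, s :: ss => match s.run D l two σ with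
    | some σ' => runAll D l two σ' ss
    | none => none

/-- The final check: all fundamental roots and their negatives are known. -/
def finalOk (D : ChevalleyDatum) (σ : St) : Bool :=
  (List.range D.rank).all fun i => σ.known.contains (D.simple i) && σ.known.contains (D.neg (D.simple i))

/-- The whole check. -/
def checkRun (D : ChevalleyDatum) (l : List ℕ) (two : Bool) (σ : St) (ss : List Step) : Bool :=
  l.all (fun i => decide (i < D.rank)) && match runAll D l two σ ss with
    | some σ' => finalOk D σ'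
    | none => false

variable {D : ChevalleyDatum} {F : Type*} [Field F]

variable (h : Tab D) (h2 : Tab2 D) (ax : Ax D F) (K : Subgroup (GL D.Idx F))

/-- `x_q(1) x_{-q}(1)` lies in `K`. -/
def CR (q : ℕ) : Prop := xG ax q 1 * xG ax (D.neg q) 1 ∈ K

/-- `x_a(1) x_b(1)` lies in `K`. -/
def PR (a b : ℕ) : Prop := xG ax a 1 * xG ax b 1 ∈ K

/-- The invariant of the check. -/
structure Inv (σ : St) : Prop where
  hk : ∀ x ∈ σ.known, QR ax K x
  hc : ∀ x ∈ σ.cs, CR ax K x
  hp : ∀ p ∈ σ.prs, PR ax K p.1 p.2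

lemma iso_group {G : Type*} [Group G] {A B C E : G} (hCE : C * E = E * C) (hBE : B * E = E * B)
    (hAE : A * E = E * A) (hAB : A * B = B * A) (hCB : C * B = B * C) :
    (C * E)⁻¹ * (A * B)⁻¹ * (C * E) * (A * B) = C⁻¹ * A⁻¹ * C * A := by
  have key : (C * E) * B = B * (C * E) := by
    calc (C * E) * B = C * (E * B) := by group
      _ = C * (B * E) := by rw [hBE]
      _ = (C * B) * E := by group
      _ = B * (C * E) := by rw [hCB]; group
  have hEA : Commute E A := hAE.symm
  have hEC : Commute E C := hCE.symm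
  have hT : Commute E (C⁻¹ * A⁻¹ * C * A) :=
    ((hEC.inv_right.mul_right hEA.inv_right).mul_right hEC).mul_right hEA
  calc (C * E)⁻¹ * (A * B)⁻¹ * (C * E) * (A * B) = (C * E)⁻¹ * (B * A)⁻¹ * (C * E) * (B * A) := by rw [hAB]
    _ = E⁻¹ * C⁻¹ * A⁻¹ * (B⁻¹ * ((C * E) * B)) * A := by group
    _ = E⁻¹ * C⁻¹ * A⁻¹ * (C * E) * A := by rw [key]; group
    _ = E⁻¹ * C⁻¹ * A⁻¹ * C * (E * A) := by group
    _ = E⁻¹ * C⁻¹ * A⁻¹ * C * (A * E) := by rw [hAE]
    _ = E⁻¹ * ((C⁻¹ * A⁻¹ * C * A) * E) := by group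
    _ = E⁻¹ * (E * (C⁻¹ * A⁻¹ * C * A)) := by rw [hT.eq]
    _ = C⁻¹ * A⁻¹ * C * A := by group

section two

variable (htwo : ∀ t : F, t = 0 ∨ t = 1)

include htwo in
lemma two_eq_zero' : (1 : F) + 1 = 0 := by
  rcases htwo (1 + 1) with e | e
  · exact e
  · exfalso
    have : (1 : F) = 0 := by linear_combination e
    exact one_ne_zero this

include htwo in
lemma neg_one_eq : (-1 : F) = 1 := by
  have := two_eq_zero' htwo
  linear_combination -this

include htwo in
lemma QR_of_one {r : ℕ} (hQ : xG ax r (1 : F) ∈ K) : QR ax K r := by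
  intro t
  rcases htwo t with rfl | rfl
  · simp [K.one_mem]
  · exact hQ

include htwo in
lemma xG_one_sq (r : ℕ) : xG ax r (1 : F) * xG ax r 1 = 1 := by
  rw [xG_add, two_eq_zero' htwo, xG_zero]

include htwo in
lemma xG_one_inv (r : ℕ) : (xG ax r (1 : F))⁻¹ = xG ax r 1 :=
  inv_eq_of_mul_eq_one_right (xG_one_sq ax htwo r)

include htwo in
lemma unit_eq_one (c : Fˣ) : (c : F) = 1 := by
  rcases htwo c with e | e
  · exact absurd e c.ne_zero
  · exact e

include htwo in
lemma int_cast_even {c : ℤ} (hc : c % 2 = 0) : (c : F) = 0 := by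
  have hc' : (2 : ℤ) ∣ c := Int.dvd_of_emod_eq_zero hc
  obtain ⟨k, rfl⟩ := hc'
  push_cast
  rw [show (2 : F) = 1 + 1 by norm_num, two_eq_zero' htwo, zero_mul]

include htwo in
lemma wordG_even {L : List (ℕ × ℤ × ℕ × ℕ)} (hL : L.all (fun e => e.2.1 % 2 == 0) = true) (t u : F) :
    wordG ax (L.map fun c => (c.1, (c.2.1 : F) * (-t) ^ c.2.2.1 * u ^ c.2.2.2)) = 1 := by
  induction L with
  | nil => rfl
  | cons a L ih =>
    simp only [List.all_cons, Bool.and_eq_true, beq_iff_eq] at hL
    rw [List.map_cons, wordG_cons, ih hL.2]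
    simp [int_cast_even htwo hL.1]

include htwo in
/-- `comm2` gives commuting. -/
lemma comm2_sound {p q : ℕ} (hc : comm2 D p q = true) : xG ax q (1 : F) * xG ax p 1 = xG ax p 1 * xG ax q 1 := by
  simp only [comm2, Bool.and_eq_true, decide_eq_true_eq, bne_iff_ne, Bool.or_eq_true, beq_iff_eq] at hc
  obtain ⟨⟨⟨hp, hq⟩, hn⟩, hc⟩ := hc
  rcases hc with rfl | hc
  · rfl
  · by_cases hqp : q = p
    · rw [hqp]
    · have e := xG_comm ax hp hq hqp hn (1 : F) 1
      have e2 : wordG ax (D.commWord F p q 1 1) = 1 := wordG_even ax htwo hc 1 1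
      rw [e, e2, mul_one]

include htwo in
/-- The conjugate of `x_t(1)` under `x_{-u}(1) x_u(1)`. -/
lemma refl_sound {u t w : ℕ} {c : ℤ} (hu : u < D.nroots) (ht : t < D.nroots) (htu : t ≠ u) (htn : t ≠ D.neg u)
    (hcomm : xG ax t (1 : F) * xG ax (D.neg u) 1 = xG ax (D.neg u) 1 * xG ax t 1) (hcc : c = 1 ∨ c = -1)
    (hterm : D.commTerms u t = [(w, c, 1, 1)])
    (hC : xG ax (D.neg u) (1 : F) * xG ax u 1 ∈ K) (hQ : xG ax t (1 : F) ∈ K) : xG ax w (1 : F) ∈ K := by
  have e := xG_comm ax hu ht htu htn (1 : F) 1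
  have e2 : wordG ax (D.commWord F u t 1 1) = xG ax w 1 := by
    simp only [commWord, hterm, List.map_cons, List.map_nil, wordG, List.prod_cons, List.prod_nil, mul_one]
    congr 1
    rcases hcc with rfl | rfl
    · simp [neg_one_eq htwo]
    · simp [neg_one_eq htwo]
  rw [e2] at e
  have e3 : xG ax w 1 = (xG ax t 1)⁻¹ * ((xG ax (D.neg u) 1 * xG ax u 1)⁻¹ * xG ax t 1 * (xG ax (D.neg u) 1 * xG ax u 1)) := by
    have e4 : (xG ax (D.neg u) (1 : F) * xG ax u 1)⁻¹ * xG ax t 1 * (xG ax (D.neg u) 1 * xG ax u 1) =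
        (xG ax u 1)⁻¹ * (xG ax (D.neg u) 1)⁻¹ * (xG ax t 1 * xG ax (D.neg u) 1) * xG ax u 1 := by group
    rw [e4, hcomm]
    have e5 : (xG ax u (1 : F))⁻¹ * (xG ax (D.neg u) 1)⁻¹ * (xG ax (D.neg u) 1 * xG ax t 1) * xG ax u 1 =
        (xG ax u 1)⁻¹ * (xG ax t 1 * xG ax u 1) := by group
    rw [e5, e]
    group
  rw [e3]
  exact K.mul_mem (K.inv_mem hQ) (K.mul_mem (K.mul_mem (K.inv_mem hC) hQ) hC)

include htwo in
/-- The commutator of two products of commuting root elements. -/
lemma iso_sound {a b c d w : ℕ} {e : ℤ} (ha : a < D.nroots) (hc : c < D.nroots) (hca : c ≠ a) (hcn : c ≠ D.neg a)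
    (hdc : xG ax c (1 : F) * xG ax d 1 = xG ax d 1 * xG ax c 1)
    (hdb : xG ax b (1 : F) * xG ax d 1 = xG ax d 1 * xG ax b 1)
    (hda : xG ax a (1 : F) * xG ax d 1 = xG ax d 1 * xG ax a 1)
    (hba : xG ax a (1 : F) * xG ax b 1 = xG ax b 1 * xG ax a 1)
    (hbc : xG ax c (1 : F) * xG ax b 1 = xG ax b 1 * xG ax c 1) (hcc : e = 1 ∨ e = -1)
    (hterm : D.commTerms a c = [(w, e, 1, 1)])
    (hP : xG ax a (1 : F) * xG ax b 1 ∈ K) (hQ : xG ax c (1 : F) * xG ax d 1 ∈ K) : xG ax w (1 : F) ∈ K := by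
  have e0 := xG_comm ax ha hc hca hcn (1 : F) 1
  have e2 : wordG ax (D.commWord F a c 1 1) = xG ax w 1 := by
    simp only [commWord, hterm, List.map_cons, List.map_nil, wordG, List.prod_cons, List.prod_nil, mul_one]
    congr 1
    rcases hcc with rfl | rfl
    · simp [neg_one_eq htwo]
    · simp [neg_one_eq htwo]
  rw [e2] at e0
  have e3 : xG ax w 1 = (xG ax c (1 : F) * xG ax d 1)⁻¹ * (xG ax a 1 * xG ax b 1)⁻¹ * (xG ax c 1 * xG ax d 1) * (xG ax a 1 * xG ax b 1) := by
    rw [iso_group hdc hdb hda hba hbc]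
    have e5 : (xG ax c (1 : F))⁻¹ * (xG ax a 1)⁻¹ * xG ax c 1 * xG ax a 1 =
        (xG ax a 1 * xG ax c 1)⁻¹ * (xG ax c 1 * xG ax a 1) := by group
    rw [e5, e0]
    group
  rw [e3]
  exact K.mul_mem (K.mul_mem (K.mul_mem (K.inv_mem hQ) (K.inv_mem hP)) hQ) hP

include h h2 htwo in
lemma CR_pi {l : List ℕ} (hl : ∀ i ∈ l, i < D.rank) (hn : nw D ax l ∈ K) {q : ℕ} (hq : q < D.nroots)
    (hC : CR ax K q) : CR ax K (wWord D l q) := by
  obtain ⟨c, hc⟩ := exists_isNor_nw h h2 ax hl
  have hq' := h.neg_lt q hq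
  have e1 := hc.conj ⟨q, hq⟩ 1
  have e2 := hc.conj ⟨D.neg q, hq'⟩ 1
  rw [wPw_val h hl, unit_eq_one htwo, mul_one] at e1 e2
  have e3 : wWord D l (D.neg q) = D.neg (wWord D l q) := by
    have := hc.neg ⟨q, hq⟩
    have e4 := congrArg Fin.val this
    simpa only [negF, wPw_val h hl] using e4
  rw [e3] at e2
  have e5 : xG ax (wWord D l q) (1 : F) * xG ax (D.neg (wWord D l q)) 1 =
      nw D ax l * (xG ax q 1 * xG ax (D.neg q) 1) * (nw D ax l)⁻¹ := by
    rw [← e1, ← e2]
    group
  rw [CR, e5]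
  exact K.mul_mem (K.mul_mem hn hC) (K.inv_mem hn)

include h2 htwo in
lemma PR_pi {l : List ℕ} (h : Tab D) (hl : ∀ i ∈ l, i < D.rank) (hn : nw D ax l ∈ K) {a b : ℕ} (ha : a < D.nroots)
    (hb : b < D.nroots) (hP : PR ax K a b) : PR ax K (wWord D l a) (wWord D l b) := by
  obtain ⟨c, hc⟩ := exists_isNor_nw h h2 ax hl
  have e1 := hc.conj ⟨a, ha⟩ 1
  have e2 := hc.conj ⟨b, hb⟩ 1
  rw [wPw_val h hl, unit_eq_one htwo, mul_one] at e1 e2
  have e5 : xG ax (wWord D l a) (1 : F) * xG ax (wWord D l b) 1 =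
      nw D ax l * (xG ax a 1 * xG ax b 1) * (nw D ax l)⁻¹ := by
    rw [← e1, ← e2]
    group
  rw [PR, e5]
  exact K.mul_mem (K.mul_mem hn hP) (K.inv_mem hn)

include htwo in
lemma CR_neg (h : Tab D) {q : ℕ} (hq : q < D.nroots) (hC : CR ax K q) : CR ax K (D.neg q) := by
  have := K.inv_mem hC
  rw [mul_inv_rev, xG_one_inv ax htwo, xG_one_inv ax htwo] at this
  rw [CR, h.neg_neg q hq]
  exact this

end two

include h h2 in
/-- One step preserves the invariant. -/
lemma Step.run_sound {l : List ℕ} (hl : ∀ i ∈ l, i < D.rank) (hn : nw D ax l ∈ K) {two : Bool}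
    (htwo : two = true → ∀ t : F, t = 0 ∨ t = 1) {σ σ' : St} {s : Step} (hI : Inv ax K σ)
    (hrun : s.run D l two σ = some σ') : Inv ax K σ' := by
  cases s with
  | pi a =>
    simp only [Step.run] at hrun
    split_ifs at hrun with hc
    simp only [Bool.and_eq_true, List.contains_iff_mem, decide_eq_true_eq] at hc
    simp only [Option.some.injEq] at hrun
    subst hrun
    refine ⟨?_, hI.hc, hI.hp⟩
    intro x hx
    rcases List.mem_cons.mp hx with rfl | hx
    · exact QR_pi h h2 ax K hl hn hc.2 (hI.hk a hc.1)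
    · exact hI.hk x hx
  | comm a b r c =>
    simp only [Step.run] at hrun
    split_ifs at hrun with hc
    simp only [Bool.and_eq_true, List.contains_iff_mem, decide_eq_true_eq, bne_iff_ne, Bool.or_eq_true, beq_iff_eq] at hc
    obtain ⟨⟨⟨⟨⟨⟨⟨h1, h3⟩, h4⟩, h5⟩, h6⟩, h7⟩, h8⟩, h9⟩ := hc
    simp only [Option.some.injEq] at hrun
    subst hrun
    refine ⟨?_, hI.hc, hI.hp⟩
    intro x hx
    rcases List.mem_cons.mp hx with rfl | hx
    · refine QR_comm ax K h4 h5 h6 h7 h9 ?_ (hI.hk a h1) (hI.hk b h3)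
      rcases h8 with rfl | rfl <;> simp
    · exact hI.hk x hx
  | piC q =>
    simp only [Step.run] at hrun
    split_ifs at hrun with hc
    simp only [Bool.and_eq_true, List.contains_iff_mem, decide_eq_true_eq] at hc
    obtain ⟨⟨h1, h3⟩, h4⟩ := hc
    simp only [Option.some.injEq] at hrun
    subst hrun
    refine ⟨hI.hk, ?_, hI.hp⟩
    intro x hx
    rcases List.mem_cons.mp hx with rfl | hx
    · exact CR_pi h h2 ax K (htwo h1) hl hn h4 (hI.hc q h3)
    · exact hI.hc x hx
  | negC q =>
    simp only [Step.run] at hrun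
    split_ifs at hrun with hc
    simp only [Bool.and_eq_true, List.contains_iff_mem, decide_eq_true_eq] at hc
    obtain ⟨⟨h1, h3⟩, h4⟩ := hc
    simp only [Option.some.injEq] at hrun
    subst hrun
    refine ⟨hI.hk, ?_, hI.hp⟩
    intro x hx
    rcases List.mem_cons.mp hx with rfl | hx
    · exact CR_neg ax K (htwo h1) h h4 (hI.hc q h3)
    · exact hI.hc x hx
  | refl u t w c =>
    simp only [Step.run] at hrun
    split_ifs at hrun with hc
    simp only [Bool.and_eq_true, List.contains_iff_mem, decide_eq_true_eq, bne_iff_ne, Bool.or_eq_true, beq_iff_eq] at hc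
    obtain ⟨⟨⟨⟨⟨⟨⟨⟨⟨h1, h3⟩, h4⟩, h5⟩, h6⟩, h7⟩, h8⟩, h9⟩, h10⟩, h11⟩ := hc
    simp only [Option.some.injEq] at hrun
    subst hrun
    refine ⟨?_, hI.hc, hI.hp⟩
    intro x hx
    rcases List.mem_cons.mp hx with rfl | hx
    · have htw := htwo h1
      refine QR_of_one ax K htw (refl_sound ax K htw h5 h6 h7 h8 (comm2_sound ax htw h9) h10 h11 ?_ (hI.hk t h4 1))
      have := hI.hc _ h3
      rw [CR, h.neg_neg u h5] at this
      exact this
    · exact hI.hk x hx
  | piP a b =>
    simp only [Step.run] at hrun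
    split_ifs at hrun with hc
    simp only [Bool.and_eq_true, List.contains_iff_mem, decide_eq_true_eq] at hc
    obtain ⟨⟨⟨h1, h3⟩, h4⟩, h5⟩ := hc
    simp only [Option.some.injEq] at hrun
    subst hrun
    refine ⟨hI.hk, hI.hc, ?_⟩
    intro x hx
    rcases List.mem_cons.mp hx with rfl | hx
    · exact PR_pi h2 ax K (htwo h1) h hl hn h4 h5 (hI.hp (a, b) h3)
    · exact hI.hp x hx
  | isoP a b c d w e =>
    simp only [Step.run] at hrun
    split_ifs at hrun with hc
    simp only [Bool.and_eq_true, List.contains_iff_mem, bne_iff_ne, Bool.or_eq_true, beq_iff_eq] at hc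
    obtain ⟨⟨⟨⟨⟨⟨⟨⟨⟨⟨⟨h1, h3⟩, h4⟩, h5⟩, h6⟩, h7⟩, h8⟩, h9⟩, h10⟩, h11⟩, h12⟩, h13⟩ := hc
    simp only [Option.some.injEq] at hrun
    subst hrun
    refine ⟨?_, hI.hc, hI.hp⟩
    intro x hx
    rcases List.mem_cons.mp hx with rfl | hx
    · have htw := htwo h1
      have hc2 := h7
      simp only [comm2, Bool.and_eq_true, decide_eq_true_eq, bne_iff_ne] at hc2
      have hal : a < D.nroots := hc2.1.1.2
      have hc3 := h5
      simp only [comm2, Bool.and_eq_true, decide_eq_true_eq, bne_iff_ne] at hc3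
      have hcl : c < D.nroots := hc3.1.1.2
      exact QR_of_one ax K htw (iso_sound ax K htw hal hcl h10 h11 (comm2_sound ax htw h5) (comm2_sound ax htw h6)
        (comm2_sound ax htw h7) (comm2_sound ax htw h8) (comm2_sound ax htw h9) h12 h13 (hI.hp (a, b) h3) (hI.hp (c, d) h4))
    · exact hI.hk x hx
  | sepP a b =>
    simp only [Step.run] at hrun
    split_ifs at hrun with hc
    simp only [Bool.and_eq_true, List.contains_iff_mem, decide_eq_true_eq] at hc
    obtain ⟨⟨⟨⟨h1, h3⟩, h4⟩, h5⟩, h6⟩ := hc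
    simp only [Option.some.injEq] at hrun
    subst hrun
    refine ⟨?_, hI.hc, hI.hp⟩
    intro x hx
    rcases List.mem_cons.mp hx with rfl | hx
    · have htw := htwo h1
      refine QR_of_one ax K htw ?_
      have := K.mul_mem (K.inv_mem (hI.hk a h4 1)) (hI.hp (a, x) h3)
      simpa using this
    · exact hI.hk x hx

include h h2 in
lemma runAll_sound {l : List ℕ} (hl : ∀ i ∈ l, i < D.rank) (hn : nw D ax l ∈ K) {two : Bool}
    (htwo : two = true → ∀ t : F, t = 0 ∨ t = 1) {σ σ' : St} {ss : List Step} (hI : Inv ax K σ)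
    (hrun : runAll D l two σ ss = some σ') : Inv ax K σ' := by
  induction ss generalizing σ with
  | nil =>
    simp only [runAll, Option.some.injEq] at hrun
    exact hrun ▸ hI
  | cons s ss ih =>
    simp only [runAll] at hrun
    cases hs : s.run D l two σ with
    | none => simp [hs] at hrun
    | some σ₁ =>
      simp only [hs] at hrun
      exact ih (Step.run_sound h h2 ax K hl hn htwo hI hs) hrun

include h h2 in
/-- The whole group from a certificate. -/
theorem group_le_of_check {l : List ℕ} (hn : nw D ax l ∈ K) {two : Bool}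
    (htwo : two = true → ∀ t : F, t = 0 ∨ t = 1) {σ : St} {ss : List Step} (hI : Inv ax K σ)
    (hC : checkRun D l two σ ss = true) : D.group F ≤ K := by
  simp only [checkRun, Bool.and_eq_true, List.all_eq_true, decide_eq_true_eq] at hC
  obtain ⟨hl, hC⟩ := hC
  cases hr : runAll D l two σ ss with
  | none => simp [hr] at hC
  | some σ' =>
    simp only [hr] at hC
    have hI' := runAll_sound h h2 ax K hl hn htwo hI hr
    simp only [finalOk, List.all_eq_true, List.mem_range, Bool.and_eq_true, List.contains_iff_mem] at hC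
    refine group_le h h2 ax K ?_ (fun i hi => hI'.hk _ (hC i hi).1)
    intro i hi
    rw [sG, nG]
    have h1 := hI'.hk _ (hC i hi).1
    have h3 := hI'.hk _ (hC i hi).2
    exact K.mul_mem (K.mul_mem (h1 _) (h3 _)) (h1 _)

end Cfsg.Agent.Lib.ChevTwo.Run
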